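import Cfsg.Agent.H16.P.JNT.C0
import Cfsg.Agent.H16.P.JNT.C1

/-! Generated by tools/h16 (computation kit). -/

set_option maxRecDepth 100000
set_option maxHeartbeats 0

namespace H16.JNT

open H26 (jn)
set_option Elab.async false
open DC DJ4 JM Subgroup
theorem wx_g0 : ∀ i < 2, (fun k => q.run fun q => frcs C fun C => Nat.xor (q.ev C (nth [] Vx k)) (nth 0 Cx k)) i = 0 := allZ_sound0 wx_0
theorem wx_g1 : ∀ i < 4, (fun k => q.run fun q => frcs C fun C => Nat.xor (q.ev C (nth [] Vx k)) (nth 0 Cx k)) i = 0 := range_glue wx_g0 wx_1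
theorem wx_g2 : ∀ i < 6, (fun k => q.run fun q => frcs C fun C => Nat.xor (q.ev C (nth [] Vx k)) (nth 0 Cx k)) i = 0 := range_glue wx_g1 wx_2
theorem wx : ∀ i < 8, (fun k => q.run fun q => frcs C fun C => Nat.xor (q.ev C (nth [] Vx k)) (nth 0 Cx k)) i = 0 := range_glue wx_g2 wx_3
theorem rpx : qx.RpL gx Cx 8 := DC.rpL_wds qok rp lx fun k h => by
  have := wx k h
  simpa only [FP.run_eq, frcs_eq] using this
theorem pLP : FP.Prs gx LP 10 :=
  FP.Prs.step qokx rpx (FP.Prs.zero gx LP) pLP_0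
theorem wr : ∀ i < 7, (fun k => qx.run fun q => frcs Cx fun C => Nat.xor (q.ev C (nth [] Vr k)) (nth 0 Cr k)) i = 0 := allZ_sound0 wr_0
theorem rpr : qr.RpL gr Cr 7 := DC.rpL_wds qokx rpx lr fun k h => by
  have := wr k h
  simpa only [FP.run_eq, frcs_eq] using this
theorem pLr : FP.Prs gr Lr 7 :=
  FP.Prs.step qokr rpr (FP.Prs.zero gr Lr) pLr_0
theorem ner : evA gr [1, 2] ≠ evA gr [2, 1] := FP.RpL.ne qokr rpr nerc
theorem wa : ∀ i < 8, (fun k => qx.run fun q => frcs Cx fun C => Nat.xor (q.ev C (nth [] Va k)) (nth 0 Ca k)) i = 0 := allZ_sound0 wa_0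
theorem rpa : qa.RpL ga Ca 8 := DC.rpL_wds qokx rpx la fun k h => by
  have := wa k h
  simpa only [FP.run_eq, frcs_eq] using this
theorem pLa : FP.Prs ga La 6 :=
  FP.Prs.step qoka rpa (FP.Prs.zero ga La) pLa_0
theorem cae : Up (ca.ent id q₁ Ca) ca.E 360 :=
  (((Up.zero.step cae_0).step cae_1).step cae_2).step cae_3
theorem car : Up (ca.rep id 1 qa Ca) ca.Wt 44 :=
  ((Up.zero.step car_0).step car_1).step car_2
theorem wb_g0 : ∀ i < 10, (fun k => qx.run fun q => frcs Cx fun C => Nat.xor (q.ev C (nth [] Vb k)) (nth 0 Cb k)) i = 0 := allZ_sound0 wb_0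
theorem wb : ∀ i < 12, (fun k => qx.run fun q => frcs Cx fun C => Nat.xor (q.ev C (nth [] Vb k)) (nth 0 Cb k)) i = 0 := range_glue wb_g0 wb_1
theorem rpb : qb.RpL gb Cb 12 := DC.rpL_wds qokx rpx lb fun k h => by
  have := wb k h
  simpa only [FP.run_eq, frcs_eq] using this
theorem pLb : FP.Prs gb Lb 23 :=
  FP.Prs.step qokb rpb (FP.Prs.zero gb Lb) pLb_0
theorem cbe : Up (cb.ent cb.cj q₁ Cb) cb.E 1155 :=
  (((((((((((((((((((((((((((Up.zero.step cbe_0).step cbe_1).step cbe_2).step cbe_3).step cbe_4).step cbe_5).step cbe_6).step cbe_7).step cbe_8).step cbe_9).step cbe_10).step cbe_11).step cbe_12).step cbe_13).step cbe_14).step cbe_15).step cbe_16).step cbe_17).step cbe_18).step cbe_19).step cbe_20).step cbe_21).step cbe_22).step cbe_23).step cbe_24).step cbe_25).step cbe_26).step cbe_27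
theorem cbr : Up (cb.rep cb.cj 1 qb Cb) cb.Wt 25 :=
  ((Up.zero.step cbr_0).step cbr_1).step cbr_2
theorem cbt : Up ((cb.alt [0, 0, 0, 1] cbV).rep cb.cj 1 qb Cb) cbV 25 :=
  (Up.zero.step cbt_0).step cbt_1
theorem wc : ∀ i < 10, (fun k => qb.run fun q => frcs Cb fun C => Nat.xor (q.ev C (nth [] Vc k)) (nth 0 Cc k)) i = 0 := allZ_sound0 wc_0
theorem rpc : qc.RpL gc Cc 10 := DC.rpL_wds qokb rpb lc fun k h => by
  have := wc k h
  simpa only [FP.run_eq, frcs_eq] using this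
theorem pLc : FP.Prs gc Lc 16 :=
  FP.Prs.step qokc rpc (FP.Prs.zero gc Lc) pLc_0
theorem cce : Up (cc.ent id q₁ Cc) cc.E 384 :=
  (((Up.zero.step cce_0).step cce_1).step cce_2).step cce_3
theorem ccr : Up (cc.rep id 1 qc Cc) cc.Wt 60 :=
  ((((Up.zero.step ccr_0).step ccr_1).step ccr_2).step ccr_3).step ccr_4
theorem cct : Up ((cc.alt [0, 0, 0, 1] ccV).rep id 1 qc Cc) ccV 60 :=
  (((Up.zero.step cct_0).step cct_1).step cct_2).step cct_3
theorem wd : ∀ i < 15, (fun k => qr.run fun q => frcs Cr fun C => Nat.xor (q.ev C (nth [] Vd k)) (nth 0 Cd k)) i = 0 := allZ_sound0 wd_0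
theorem rpd : qd.RpL gd Cd 15 := DC.rpL_wds qokr rpr ld fun k h => by
  have := wd k h
  simpa only [FP.run_eq, frcs_eq] using this
theorem pLd : FP.Prs gd Ld 27 :=
  FP.Prs.step qokd rpd (FP.Prs.zero gd Ld) pLd_0
theorem cde : Up (cd.ent cd.cj q₁ Cd) cd.E 990 :=
  ((((((((((((((((((Up.zero.step cde_0).step cde_1).step cde_2).step cde_3).step cde_4).step cde_5).step cde_6).step cde_7).step cde_8).step cde_9).step cde_10).step cde_11).step cde_12).step cde_13).step cde_14).step cde_15).step cde_16).step cde_17).step cde_18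
theorem cdr : Up (cd.rep cd.cj 1 qd Cd) cd.Wt 114 :=
  ((((((((((Up.zero.step cdr_0).step cdr_1).step cdr_2).step cdr_3).step cdr_4).step cdr_5).step cdr_6).step cdr_7).step cdr_8).step cdr_9).step cdr_10
theorem cdt : Up ((cd.alt [0, 0, 0, 1] cdV).rep cd.cj 1 qd Cd) cdV 114 :=
  (((((((((Up.zero.step cdt_0).step cdt_1).step cdt_2).step cdt_3).step cdt_4).step cdt_5).step cdt_6).step cdt_7).step cdt_8).step cdt_9
theorem we : ∀ i < 13, (fun k => qd.run fun q => frcs Cd fun C => Nat.xor (q.ev C (nth [] Ve k)) (nth 0 Ce k)) i = 0 := allZ_sound0 we_0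
theorem rpe : qe.RpL ge Ce 13 := DC.rpL_wds qokd rpd le fun k h => by
  have := we k h
  simpa only [FP.run_eq, frcs_eq] using this
theorem pLe : FP.Prs ge Le 18 :=
  FP.Prs.step qoke rpe (FP.Prs.zero ge Le) pLe_0
theorem cee : Up (ce.ent id q₁ Ce) ce.E 896 :=
  (((((((Up.zero.step cee_0).step cee_1).step cee_2).step cee_3).step cee_4).step cee_5).step cee_6).step cee_7
theorem cer : Up (ce.rep id 1 qe Ce) ce.Wt 304 :=
  ((((((((((((((((((((Up.zero.step cer_0).step cer_1).step cer_2).step cer_3).step cer_4).step cer_5).step cer_6).step cer_7).step cer_8).step cer_9).step cer_10).step cer_11).step cer_12).step cer_13).step cer_14).step cer_15).step cer_16).step cer_17).step cer_18).step cer_19).step cer_20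
theorem cet : Up ((ce.alt [0, 0, 0, 1] ceV).rep id 1 qe Ce) ceV 304 :=
  ((((((((((((((((((Up.zero.step cet_0).step cet_1).step cet_2).step cet_3).step cet_4).step cet_5).step cet_6).step cet_7).step cet_8).step cet_9).step cet_10).step cet_11).step cet_12).step cet_13).step cet_14).step cet_15).step cet_16).step cet_17).step cet_18
theorem main {G : Type*} [Group G] [Finite G] {f : G →* GL (_root_.Fin 112) (ZMod 2)} {γ : ℕ → G} (he : Em f γ g 14) :
    ∃ δ ρ : ℕ → G, Rels δ U33.Rl ∧ orderOf (δ 2) = 2 ∧ gen ρ 4 ≤ gen δ 4 ∧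
      (orderOf (ρ 0) = 3 ∧ orderOf (ρ 1) = 3 ∧ orderOf (ρ 2) = 3 ∧ orderOf (ρ 3) = 8) ∧ (ρ 1 ∈ centralizer {ρ 0} ∧ ρ 2 ∈ centralizer {ρ 0} ∧
      ρ 2 ∉ centralizer {ρ 1} ∧ ρ 2 ∈ normalizer (gen ρ 2 : Set G) ∧ ρ 3 ∈ normalizer (gen ρ 3 : Set G)) ∧
      (∃ t ∈ gen δ 4, orderOf t = 7 ∧ (Nat.card (normalizer (zpowers (t) : Set G)) ≤ 2520 → ∀ M : Subgroup G, gen δ 4 ≤ M → M ⊓ normalizer (zpowers (t) : Set G) ≤ gen δ 4 ∨ 31 ∣ Nat.card M)) ∧
      (Nat.card (normalizer (zpowers (ρ 0) : Set G)) ≤ 5322240 → ∀ M : Subgroup G, gen δ 4 ≤ M → M ⊓ normalizer (zpowers (ρ 0) : Set G) ≤ gen δ 4 ∨ 23 ∣ Nat.card M ∧ 37 ∣ Nat.card M) ∧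
      (Nat.card (centralizer {ρ 1}) ≤ 2661120 → ∀ M : Subgroup G, gen δ 4 ≤ M → M ⊓ centralizer {ρ 1} ≤ gen ρ 2 ∨ 23 ∣ Nat.card M ∧ 37 ∣ Nat.card M) := by
  have e := he.wds lx 8
  have P := e.prs pLP lLP
  have O := e.ord qokx rpx oLP
  rw [LP, List.forall_mem_append] at P
  have er := e.wds lr 7
  have Pr := er.prs pLr lLr
  have Or := er.ord qokr rpr oLr
  simp only [Lr, List.forall_mem_append] at Pr
  have mr4 := wds_gen (wds γ Vx) mr4
  have ea := e.wds la 8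
  have Pa := ea.prs pLa lLa
  have Oa := ea.ord qoka rpa oLa
  rw [La] at Pa
  have ma4 := wds_gen (wds γ Vx) ma4
  have eb := e.wds lb 12
  have Pb := eb.prs pLb lLb
  simp only [Lb, List.forall_mem_append] at Pb
  have mb4 := wds_gen (wds γ Vx) mb4
  have ec := eb.wds lc 10
  have Pc := ec.prs pLc lLc
  have Oc := ec.ord qokc rpc oLc
  simp only [Lc, List.forall_mem_append] at Pc
  have mc7 := wds_gen (wds (wds γ Vx) Vb) mc7
  have ed := er.wds ld 15
  have Pd := ed.prs pLd lLd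
  simp only [Ld, List.forall_mem_append] at Pd
  have md5 := wds_gen (wds (wds γ Vx) Vr) md5
  have ee := ed.wds le 13
  have Pe := ee.prs pLe lLe
  have Oe := ee.ord qoke rpe oLe
  simp only [Le, List.forall_mem_append] at Pe
  have me7 := wds_gen (wds (wds (wds γ Vx) Vr) Vd) me7
  have ka := (Cv.cover (c := ca) qoka (fun k hk => rpa k (hk.trans_le (by decide))) ⟨ea.1, fun k hk => ea.2 k (hk.trans_le (by decide))⟩
    ok₁ (by norm_num) cae car cas (nP_norm Pa (by decide))).imp id fun c h M h0 => c h _ M h0 (fun k _ => ma4 k)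
      fun k k1 => h0 (ma4 k (k1.trans (by decide)))
  rw [show orderOf (wds _ Va ca.T) = 7 from Oa (2, 7) (by simp)] at ka
  have r5 := gen_le.2 mr4
  have b7 := gen_le.2 mb4
  have d2 : ∀ k, 3 ≤ k → k < 7 → wds (wds (wds γ Vx) Vr) Vd k ∈ gen (wds (wds γ Vx) Vr) 2 := fun k k1 k2 => evA_mem_gen _ (ltAll_zero (md2 k k2 k1))
  have r2 := (gen_mono _ (by decide : 2 ≤ 5)).trans r5
  have d7 : gen (wds (wds (wds γ Vx) Vr) Vd) 7 ≤ _ := gen_le.2 fun k k2 => (lt_or_ge k 3).elim (fun k1 => r5 (md5 k k1)) fun k1 => r2 (d2 k k1 k2)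
  refine ⟨_, wds (wds γ Vx) Vr, rels_of P.1, O (2, 2) (by simp), (gen_mono _ (by decide)).trans r5, ⟨Or (0, 3) (by simp), Or (1, 3) (by simp), Or (2, 3) (by simp),
    Or (3, 8) (by simp)⟩, ⟨nP_cent (a := 1) (b := 3) Pr.1.1 (by decide) 1 le_rfl (by decide), nP_cent (a := 1) (b := 3) Pr.1.1 (by decide) 2 (by decide)
    (by decide), fun a => er.ne ner (by decide) (by simpa using mem_centralizer_singleton_iff.1 a), nQ_norm Pr.1.2 (by decide +kernel),
    nQ_norm Pr.2 (by decide +kernel)⟩, ⟨_, ma4 2 (by decide), Oa (2, 7) (by simp), ka.2⟩, fun h M h0 => .imp_right And.symm ?_, fun h M h0 => .imp_right And.symm ?_⟩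
  · have c := Cv.cover₂ (c := cc) qokc rpc ec ok₁ (by norm_num) (by norm_num) cce ccr cct ccs ccu (Y := normalizer (zpowers (wds (wds γ Vx) Vb 5) : Set G) ⊓ centralizer {wds (wds γ Vx) Vb cb.T})
      fun k k1 k2 => ⟨(show wds (wds (wds γ Vx) Vb) Vc 5 = _ from one_mul (wds (wds γ Vx) Vb 5)) ▸ nP_norm Pc.1 (by decide) k k1 k2,
        (show wds (wds (wds γ Vx) Vb) Vc 4 = _ from one_mul (wds (wds γ Vx) Vb cb.T)) ▸ nP_cent Pc.2 (by decide) k k1 k2⟩
    rw [show orderOf (wds _ Vc cc.T) = 12 from Oc (2, 12) (by simp)] at c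
    exact Cv.clz₂ (c := cb) qokb rpb eb ok₁ (by norm_num) (by norm_num) cbe cbr cbt cbs cbu (nP_norm Pb.1 (by decide)) (iP_eq Pb.2) h0
      (fun k _ => mb4 k) (fun k k1 => h0 (mb4 k (k1.trans (by decide)))) h (by decide) (c.imp_right fun c a => c a _ M h0
        (fun k _ k2 => b7 (mc7 k k2)) fun k k1 => h0 (b7 (mc7 k (k1.trans (by decide)))))
  have c := Cv.cover₂ (c := ce) qoke rpe ee ok₁ (by norm_num) (by norm_num) cee cer cet ces ceu (Y := centralizer {wds (wds (wds γ Vx) Vr) Vd 5} ⊓ centralizer {wds (wds (wds γ Vx) Vr) Vd cd.T})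
    fun k k1 k2 => ⟨(show wds (wds (wds (wds γ Vx) Vr) Vd) Ve 2 = _ from one_mul (wds (wds (wds γ Vx) Vr) Vd 5)) ▸ nP_cent Pe.1 (by decide) k k1 k2,
      (show wds (wds (wds (wds γ Vx) Vr) Vd) Ve 3 = _ from one_mul (wds (wds (wds γ Vx) Vr) Vd cd.T)) ▸ nP_cent Pe.2 (by decide) k k1 k2⟩
  rw [show orderOf (wds _ Ve ce.T) = 3 from Oe (4, 3) (by simp)] at c
  rw [← show wds (wds (wds γ Vx) Vr) Vd 5 = _ from one_mul (wds (wds γ Vx) Vr 1)] at h ⊢
  refine Cv.clz₂ (c := cd) qokd rpd ed ok₁ (by norm_num) (by norm_num) cde cdr cdt cds cdu (nP_cent Pd.1 (by decide)) (iP_eq Pd.2) (r2.trans h0)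
    d2 (fun k k1 => h0 (r5 (md5 k k1))) h (by decide) (c.imp_right fun c a => c a _ M (r2.trans h0) (fun k k1 k2 => ?_) fun k k1 => h0 (d7 (me7 k k1)))
  obtain rfl : k = 4 := by change 4 ≤ k at k1; change k < 5 at k2; omega
  exact (show wds (wds (wds (wds γ Vx) Vr) Vd) Ve 4 = _ from one_mul (wds (wds (wds γ Vx) Vr) Vd 3)) ▸ d2 3 le_rfl (by decide)

end H16.JNT
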