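import Cfsg.Agent.H16.P.HeO
import Cfsg.Agent.H16.Tab
import Cfsg.Agent.H16.L.S44

/-! Generated by tools/h16 (computation kit). -/

set_option maxRecDepth 100000
set_option maxHeartbeats 0

namespace H16.PHe

noncomputable def WyS : List (List ℕ) := [[nat_lit 6, nat_lit 0, nat_lit 2, nat_lit 4, nat_lit 6, nat_lit 4, nat_lit 2, nat_lit 1, nat_lit 0, nat_lit 2, nat_lit 3, nat_lit 2, nat_lit 1, nat_lit 2, nat_lit 4, nat_lit 2, nat_lit 1, nat_lit 6, nat_lit 6, nat_lit 2, nat_lit 4, nat_lit 1, nat_lit 2, nat_lit 4],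
  [nat_lit 2, nat_lit 4, nat_lit 3, nat_lit 2, nat_lit 6, nat_lit 4, nat_lit 1, nat_lit 3, nat_lit 2, nat_lit 1, nat_lit 2, nat_lit 4, nat_lit 6, nat_lit 3, nat_lit 1, nat_lit 2, nat_lit 3, nat_lit 4, nat_lit 2, nat_lit 0, nat_lit 6, nat_lit 6],
  [nat_lit 0, nat_lit 6, nat_lit 4, nat_lit 2, nat_lit 6, nat_lit 4, nat_lit 6, nat_lit 6, nat_lit 3, nat_lit 2, nat_lit 4, nat_lit 6],
  [nat_lit 2, nat_lit 6, nat_lit 4, nat_lit 6, nat_lit 2, nat_lit 3],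
  [nat_lit 3, nat_lit 6, nat_lit 2, nat_lit 4, nat_lit 2, nat_lit 6],
  [nat_lit 5, nat_lit 3, nat_lit 2, nat_lit 6, nat_lit 6, nat_lit 1, nat_lit 2, nat_lit 3, nat_lit 4, nat_lit 6, nat_lit 6, nat_lit 2, nat_lit 1, nat_lit 2, nat_lit 6, nat_lit 6, nat_lit 0, nat_lit 3, nat_lit 5],
  [nat_lit 0, nat_lit 6, nat_lit 6]]

theorem sS : allL (ltAll 7) WyS = true ∧ allL (fixL (wdsP (wdsP P UO) WyS) 7 B) S44.Rl = true ∧ 0 < 7 ∧
    ltAll 7 (nth [] WyS 0) = 0 ∧ 2 < 2058 ∧ apW (wdsP P UO) (nth [] WyS 0) 2 ≠ 2 := by decide +kernel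

open Cfsg Cfsg.Spor in
theorem subS {S : Set (FreeGroup He.Gen)} (hS : ∀ w, w ∈ S ↔ w ∈ lO) :
    ∃ M : Subgroup ((Subgroup.closure S).map (PresentedGroup.mk (coxRelators He.edges ∪ {r | r ∈ He.extra}))), M.index = 2 ∧ Nonempty (M ≃* Matrix.symplecticGroup (Fin 2) H11.F4) :=
  have ⟨M, h1, ⟨e⟩⟩ := pres_sub (m := 2) equiv equiv_mk act (ptF_inj _) Blt isBase hS ⟨e1O.1, e2O.2.2.1, e2O.1⟩
    S44.bound S44.rels S44.card S44.simple sS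
    (card_of_index (suborbitsO hS).1 card_eq (by norm_num)) (by norm_num)
  ⟨M, h1, ⟨e.trans LS44.equiv.some⟩⟩

end H16.PHe
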